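import Cfsg.Agent.H371.TC.FTwoF
import Cfsg.Agent.H800.TF8.Lin

/-!
# `²F₄(q)`: the linear characters of `B` trivial on `U` and on the torus of `⟨X_0, X_8⟩` (helper371, S2452)

`two_frame` : such a `mu ≠ 1` is moved by each element of `N` outside of `Pi = B ∪ B n2 B`.
-/

set_option autoImplicit false
set_option linter.unusedSectionVars false

namespace Cfsg.Agent.H371.TC

open Cfsg
open Cfsg.Agent.SplitTwo Cfsg.Agent.SplitTwo.ZS Cfsg.Agent.TitsThree.RankTwoZ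
open Cfsg.Agent.KFacts.TwF4 Cfsg.Agent.KFacts.TwF4.Arc Cfsg.Agent.KFacts.TwF4.Inv
open Cfsg.Agent.H84.TwF4Two Cfsg.Agent.H84.GaussTwF4 Cfsg.Agent.H45.GG

universe u

variable {F : Type*} [Field F] {σ : F →+* F} {G : Type u} [Group G] {S : Full σ G}

theorem XZ_congr {k l : ℤ} (h : (k : ZMod (2 * 8)) = (l : ZMod (2 * 8))) : S.XZ k = S.XZ l := by
  show S.R.X _ = S.R.X _
  rw [h]

theorem rota_congr {c d : ℤ} (h : (c : ZMod (2 * 8)) = (d : ZMod (2 * 8))) {n : G} (hn : Rota S c n) :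
    Rota S d n := by
  intro j x
  rw [hn j x, XZ_congr (S := S) (k := c + j) (l := d + j)]
  push_cast
  rw [h]

theorem rota_one : Rota S 0 (1 : G) := by
  intro j x
  rw [zero_add, one_mul, inv_one, mul_one]

theorem rota_pow {c : ℤ} {n : G} (h : Rota S c n) : ∀ m : ℕ, Rota S (m * c) (n ^ m) := by
  intro m
  induction m with
  | zero =>
    rw [pow_zero, Nat.cast_zero, zero_mul]
    exact rota_one
  | succ m ih =>
    have := rota_mul ih h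
    rw [pow_succ, Nat.cast_succ, add_mul, one_mul]
    exact this

theorem rota_of_T {t : G} (ht : t ∈ S.T) : Rota S 0 t := by
  intro j x
  rw [zero_add]
  exact (ht _ x).symm

/-- rotations normalise the torus -/
theorem rota_T {c : ℤ} {n t : G} (hn : Rota S c n) (ht : t ∈ S.T) : n * t * n⁻¹ ∈ S.T := by
  have h := rota_mul (rota_mul hn (rota_of_T ht)) (rota_inv hn)
  rw [add_zero, add_neg_cancel] at h
  exact mem_T_of_rota h

/-- two rotations of the same type act in the same way on the torus -/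
theorem rota_conj_eq {c : ℤ} {n n' t : G} (hn : Rota S c n) (hn' : Rota S c n') (ht : t ∈ S.T) :
    n * t * n⁻¹ = n' * t * n'⁻¹ := by
  have h1 := rota_mul hn (rota_inv hn')
  rw [add_neg_cancel] at h1
  have h2 := mem_T_of_rota h1
  have h3 := rota_T hn' ht
  have h4 := T_comm h2 h3
  have e : n * t * n⁻¹ = (n * n'⁻¹) * (n' * t * n'⁻¹) * (n * n'⁻¹)⁻¹ := by group
  rw [e, h4]; group

/-- the fourth power of the rotation inverts the torus -/
theorem rot4_h (c d : Fˣ) : S.rot ^ (4 : ℤ) * S.h c d * (S.rot ^ (4 : ℤ))⁻¹ = S.h c⁻¹ d⁻¹ := by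
  set n := S.rot ^ (4 : ℤ) with hn
  have hnr : Rota S 8 n := by
    have h := rota_of_maps (S := S) (c := 2 * 4) (w := S.rot ^ (4 : ℤ)) (S.rot_maps 4)
    rwa [show (2 : ℤ) * 4 = 8 by norm_num] at h
  have hT : n * S.h c d * n⁻¹ ∈ S.T := rota_T hnr (S.mem_T.2 ⟨_, _, rfl⟩)
  have key : ∀ a : ZMod 8, (n * S.h c d * n⁻¹) * S.e a 1 0 * (n * S.h c d * n⁻¹)⁻¹ =
      S.e a (chE σ (a - 4) c d) 0 := by
    intro a
    have e2 : n⁻¹ * S.e a 1 0 * n = S.e (a - 4) 1 0 := by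
      have := S.rotk_e 4 (a - 4) 1 0
      rw [show a - 4 + ((4 : ℤ) : ZMod 8) = a by push_cast; ring, ← hn] at this
      rw [← this]; group
    have e1 : (n * S.h c d * n⁻¹) * S.e a 1 0 * (n * S.h c d * n⁻¹)⁻¹ =
        n * (S.h c d * (n⁻¹ * S.e a 1 0 * n) * (S.h c d)⁻¹) * n⁻¹ := by group
    rw [e1, e2, S.h_e, hn, S.rotk_e, mul_one, mul_zero, show a - 4 + ((4 : ℤ) : ZMod 8) = a by push_cast; ring]
  refine h_eq_of S hT ?_ ?_
  · have := key 0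
    rw [show (0 : ZMod 8) - 4 = 4 by decide, chE_four] at this
    exact this
  · have := key 1
    rw [show (1 : ZMod 8) - 4 = 5 by decide, chE_five] at this
    exact this

/-- rotations by `8` invert the torus -/
theorem rota8_inv {n t : G} (hn : Rota S 8 n) (ht : t ∈ S.T) : n * t * n⁻¹ = t⁻¹ := by
  have h := rota_of_maps (S := S) (c := 2 * 4) (w := S.rot ^ (4 : ℤ)) (S.rot_maps 4)
  rw [show (2 : ℤ) * 4 = 8 by norm_num] at h
  rw [rota_conj_eq hn h ht]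
  obtain ⟨c, d, rfl⟩ := S.mem_T.1 ht
  rw [rot4_h, S.h_inv]

/-- a power of a non-trivial rotation is the rotation by `8` -/
theorem exists_pow8 {c : ℤ} (hc : ((2 * c : ℤ) : ZMod (2 * 8)) ≠ 0) :
    ∃ m : ℕ, (((m : ℤ) * (2 * c) : ℤ) : ZMod (2 * 8)) = ((8 : ℤ) : ZMod (2 * 8)) := by
  have key : ∀ z : ZMod (2 * 8), 2 * z ≠ 0 → (1 : ZMod (2 * 8)) * (2 * z) = 8 ∨ 2 * (2 * z) = 8 ∨ 4 * (2 * z) = 8 := by
    decide
  have h := key (c : ZMod (2 * 8)) (by push_cast at hc; exact hc)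
  rcases h with h | h | h
  · exact ⟨1, by push_cast; exact h⟩
  · exact ⟨2, by push_cast; exact h⟩
  · exact ⟨4, by push_cast; exact h⟩

section mu

variable {B : Subgroup G} (hT : S.T ≤ B) (mu : B →* ℂˣ)

/-- `mu` restricted to the torus is fixed by `n` -/
def Fx (n : G) : Prop := ∀ s (_ : s ∈ S.T), ∃ h : n⁻¹ * s * n ∈ S.T, ∃ h' : s ∈ S.T,
  mu ⟨n⁻¹ * s * n, hT h⟩ = mu ⟨s, hT h'⟩

variable {hT mu}

theorem Fx.mul {m n : G} (hm : Fx hT mu m) (hn : Fx hT mu n) : Fx hT mu (m * n) := by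
  intro s hs
  obtain ⟨h1, h1', e1⟩ := hm s hs
  obtain ⟨h2, h2', e2⟩ := hn _ h1
  have e : (m * n)⁻¹ * s * (m * n) = n⁻¹ * (m⁻¹ * s * m) * n := by group
  refine ⟨by rw [e]; exact h2, h1', ?_⟩
  rw [← e1, ← e2]
  congr 1
  exact Subtype.ext e

theorem Fx.pow {n : G} (hn : Fx hT mu n) : ∀ m : ℕ, Fx hT mu (n ^ m) := by
  intro m
  induction m with
  | zero =>
    intro s hs
    have e : (n ^ 0)⁻¹ * s * n ^ 0 = s := by group
    refine ⟨by rw [e]; exact hs, hs, ?_⟩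
    congr 1
    exact Subtype.ext e
  | succ m ih =>
    rw [pow_succ]
    exact ih.mul hn

/-- fixed by the rotation by 8: trivial -/
theorem Fx.triv [Finite F] (ho : Odd (Nat.card Fˣ)) {n : G} (hn : Fx hT mu n) (h8 : Rota S 8 n) :
    ∀ s (hs : s ∈ S.T), mu ⟨s, hT hs⟩ = 1 := by
  intro s hs
  obtain ⟨h1, h1', e1⟩ := hn s hs
  have h8' : Rota S 8 n⁻¹ := rota_congr (by decide) (rota_inv h8)
  have e2 : n⁻¹ * s * n = s⁻¹ := by
    have := rota8_inv h8' hs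
    rwa [inv_inv] at this
  have e3 : (⟨n⁻¹ * s * n, hT h1⟩ : B) = (⟨s, hT hs⟩ : B)⁻¹ := Subtype.ext e2
  rw [e3, map_inv, inv_eq_iff_mul_eq_one] at e1
  obtain ⟨k, hk⟩ := ho
  obtain ⟨c, d, hcd⟩ := S.mem_T.1 hs
  have h4 : (⟨s, hT hs⟩ : B) ^ (2 * k + 1) = 1 := by
    apply Subtype.ext
    show s ^ (2 * k + 1) = 1
    have h5 : ∀ x : Fˣ, x ^ (2 * k + 1) = 1 := fun x => by rw [← hk]; exact pow_card_eq_one'
    rw [← hcd, h_pow, h5, h5, S.h_one]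
  have h5 := congrArg mu h4
  rw [map_pow, map_one, pow_succ, pow_mul, pow_two, e1, one_pow, one_mul] at h5
  exact h5

/-- `mu` is fixed by `n2` if it is trivial on the torus of the Levi factor -/
theorem fx_n2 [Finite F] (h2 : ∀ b : B, (b : G) ∈ LL S → mu b = 1) : Fx hT mu S.n2 := by
  intro s hs
  obtain ⟨c, d, rfl⟩ := S.mem_T.1 hs
  have e0 : S.n2⁻¹ * S.h c d * S.n2 = S.h (Units.map (σ : F →* F) (Units.map (σ : F →* F) c)⁻¹)
      (Units.map (σ : F →* F) c)⁻¹ * S.h c d := by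
    have h3 := S.n2_h c d
    rw [n2_inv] at h3
    rw [n2_inv, h3, S.h_mul, map_inv, map_map σ S.sq]
    congr 1
    · rw [pow_two, mul_inv, inv_mul_cancel_right]
    · rw [div_eq_inv_mul]
  have h4 : S.h (Units.map (σ : F →* F) (Units.map (σ : F →* F) c)⁻¹) (Units.map (σ : F →* F) c)⁻¹ ∈ S.T :=
    S.mem_T.2 ⟨_, _, rfl⟩
  have h5 : S.n2⁻¹ * S.h c d * S.n2 ∈ S.T := by
    rw [e0]
    exact mul_mem h4 hs
  refine ⟨h5, hs, ?_⟩
  have e1 : (⟨S.n2⁻¹ * S.h c d * S.n2, hT h5⟩ : B) = ⟨_, hT h4⟩ * ⟨S.h c d, hT hs⟩ := Subtype.ext e0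
  rw [e1, map_mul, h2 ⟨_, hT h4⟩ (h_mem_LL _), one_mul]

theorem two_frame [Finite F] (ho : Odd (Nat.card Fˣ)) {Pi : Subgroup G} (hBP : B ≤ Pi) (hn : S.n2 ∈ Pi)
    (hU : J S.XZ 1 8 ≤ B) (hT : S.T ≤ B) (hB : ∀ b ∈ B, ∃ u ∈ J S.XZ 1 8, ∃ t ∈ S.T, b = u * t)
    (mu : B →* ℂˣ) (h1 : ∀ u (hu : u ∈ J S.XZ 1 8), mu ⟨u, hU hu⟩ = 1)
    (h2 : ∀ b : B, (b : G) ∈ LL S → mu b = 1) (h3 : mu ≠ 1) :
    ∀ x ∉ Pi, ∃ w, DK B B w x ∧ ∃ (s : G) (hs : s ∈ B) (hs' : w⁻¹ * s * w ∈ B),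
      mu ⟨w⁻¹ * s * w, hs'⟩ ≠ mu ⟨s, hs⟩ := by
  intro x hx
  obtain ⟨b, hb, t, ht, w, hw, b', hb', rfl⟩ := S.bruhatE x
  have hwP : w ∉ Pi := by
    intro hw
    exact hx (mul_mem (mul_mem (mul_mem (hBP (hU hb)) (hBP (hT ht))) hw) (hBP (hU hb')))
  refine ⟨w, ⟨b * t, mul_mem (hU hb) (hT ht), b', hU hb', rfl⟩, ?_⟩
  by_contra hcon
  push Not at hcon
  -- `w` normalises the torus
  have hwT : ∀ s ∈ S.T, w⁻¹ * s * w ∈ S.T := by
    intro s hs
    obtain ⟨c, hc | hc⟩ := hw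
    · have := rota_T (rota_inv (rota_of_maps hc)) hs
      rwa [inv_inv] at this
    · have := refl_T (refl_of_maps hc).inv hs
      rwa [inv_inv] at this
  have hfx : Fx hT mu w := fun s hs => ⟨hwT s hs, hs, hcon s (hT hs) (hT (hwT s hs))⟩
  have hmain : ∀ c : ℤ, ∀ n : G, Fx hT mu n → Rota S (2 * c) n → ((2 * c : ℤ) : ZMod (2 * 8)) = 0 := by
    intro c n hfn hrn
    by_contra hne
    obtain ⟨m, hm⟩ := exists_pow8 hne
    have h4 := rota_congr hm (rota_pow hrn m)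
    have h5 := (hfn.pow m).triv ho h4
    apply h3
    ext ⟨g, hg⟩
    obtain ⟨u, hu, τ, hτ, rfl⟩ := hB g hg
    have e1 : (⟨u * τ, hg⟩ : B) = ⟨u, hU hu⟩ * ⟨τ, hT hτ⟩ := rfl
    rw [e1, map_mul, h1 u hu, h5 τ hτ, one_mul]
    rfl
  obtain ⟨c, hc | hc⟩ := hw
  · have h4 := rota_of_maps hc
    have h5 := hmain c w hfx h4
    apply hwP
    exact hBP (hT (mem_T_of_rota (rota_congr (by rw [h5, Int.cast_zero]) h4)))
  · have h4 := refl_mul S.n2_refl (refl_of_maps hc)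
    rw [show (8 : ℤ) - 2 * c = 2 * (4 - c) by ring] at h4
    have h5 := hmain (4 - c) _ ((fx_n2 h2).mul hfx) h4
    apply hwP
    have h6 := hBP (hT (mem_T_of_rota (rota_congr (by rw [h5, Int.cast_zero]) h4)))
    have h7 := mul_mem (inv_mem hn) h6
    rwa [inv_mul_cancel_left] at h7

end mu

end Cfsg.Agent.H371.TC
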